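import Cfsg.Agent.H3.Ree
import Cfsg.Agent.H3.Tri
import Cfsg.Agent.H8.Stable

/-! Groups without quaternion sections have no quadratic action in odd characteristic. -/

set_option autoImplicit false
set_option linter.unusedSectionVars false

namespace Cfsg.H3

open Subgroup Matrix Cfsg.L0
open scoped MatrixGroups commutatorElement

/-- In every `2`-subgroup the elements of order at least four commute. -/
def QFree (Γ : Type*) [Group Γ] : Prop :=
  ∀ S : Subgroup Γ, IsPGroup 2 S → ∀ x ∈ S, ∀ y ∈ S, x ^ 2 ≠ 1 → y ^ 2 ≠ 1 → x * y = y * x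

variable {Γ Δ : Type*} [Group Γ] [Group Δ]

theorem QFree.of_injective (h : QFree Δ) {f : Γ →* Δ} (hf : Function.Injective f) : QFree Γ :=
  fun S hS x hx y hy h1 h2 => hf (by
    simpa using h _ (hS.map f) _ (mem_map_of_mem f hx) _ (mem_map_of_mem f hy)
      (by rwa [← map_pow, Ne, map_eq_one_iff f hf]) (by rwa [← map_pow, Ne, map_eq_one_iff f hf]))

theorem QFree.of_surjective [Finite Γ] (h : QFree Γ) {f : Γ →* Δ} (hf : Function.Surjective f) :
    QFree Δ := fun S hS x hx y hy h1 h2 => by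
  have := Finite.of_surjective f hf
  obtain ⟨T, hT⟩ := hS.exists_le_sylow
  obtain ⟨T, rfl⟩ := Sylow.mapSurjective_surjective hf 2 T
  obtain ⟨x, hx', rfl⟩ := hT hx
  obtain ⟨y, hy', rfl⟩ := hT hy
  rw [← map_mul, h _ T.2 x hx' y hy' (fun e => h1 (by rw [← map_pow, e, map_one]))
    (fun e => h2 (by rw [← map_pow, e, map_one])), map_mul]

theorem QFree.of_involves [Finite Γ] (h : QFree Γ) (h1 : Involves Δ Γ) : QFree Δ := by
  obtain ⟨K, f, hf⟩ := H8.involves_iff.1 h1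
  exact (h.of_injective K.subtype_injective).of_surjective hf

theorem qFree_of_pow_four (h : ∀ g : Γ, g ^ 4 = 1 → g ^ 2 = 1) : QFree Γ := fun S hS x hx _ _ h1 => by
  obtain ⟨k, hk⟩ := hS ⟨x, hx⟩
  replace hk : x ^ 2 ^ k = 1 := congrArg Subtype.val hk
  refine (h1 ?_).elim
  induction k with
  | zero => simp_all
  | succ k ih =>
    cases k with
    | zero => simpa using hk
    | succ k => exact ih (by rw [pow_succ, pow_mul]; exact h _ (by rw [← hk, ← pow_mul]; congr 1; ring))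

variable {F : Type*} [Field F]

theorem qFree_PSL2 [Finite F] (h2 : (2 : F) ≠ 0) : QFree PSL(2, F) := fun S hS x hx y hy h1 h3 => by
  have : Nontrivial S := ⟨⟨⟨x, hx⟩, 1, fun e => h1 (by rw [show x = 1 from congrArg Subtype.val e, one_pow])⟩⟩
  have := hS.center_nontrivial
  obtain ⟨⟨z, hz⟩, z1⟩ := exists_ne (1 : center S)
  obtain ⟨Z, hZ⟩ := QuotientGroup.mk_surjective z.1
  have key : ∀ X : SL(2, F), (X : PSL(2, F)) ∈ S → (X : PSL(2, F)) ^ 2 ≠ 1 → X * Z = Z * X :=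
    fun X h4 h5 => (mk_eq_mk_SL2.1 (by
      simpa [hZ] using congrArg Subtype.val (mem_center_iff.1 hz ⟨_, h4⟩))).resolve_right fun e => h5 (by
        have h6 := tr_conj X Z
        rw [← neg_neg (Z * X), ← e, neg_mul, tr_neg, mul_assoc, tr_mul_comm, mul_inv_cancel, one_mul] at h6
        exact mk_pow_eq_one_of_neg (pow_two_of_tr (by grind)))
  obtain ⟨X, rfl⟩ := QuotientGroup.mk_surjective x
  obtain ⟨Y, rfl⟩ := QuotientGroup.mk_surjective y
  have h4 := key X hx h1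
  have h5 := key Y hy h3
  have h6 : ¬ (Z 0 1 = 0 ∧ Z 1 0 = 0 ∧ Z 0 0 = Z 1 1) := fun e => z1 (Subtype.ext (Subtype.ext
    (hZ.symm.trans ((QuotientGroup.eq_one_iff _).2 (mem_center_iff.2 fun A => by
      ext i j
      fin_cases i <;> fin_cases j <;> simp [mul_apply, Fin.sum_univ_two, e.1, e.2.1, e.2.2, mul_comm])))))
  rw [← QuotientGroup.mk_mul, ← QuotientGroup.mk_mul]
  congr 1
  have a := fun i j => congrFun₂ (congrArg Subtype.val h4) i j
  have b := fun i j => congrFun₂ (congrArg Subtype.val h5) i j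
  simp only [Fin.forall_fin_two, Matrix.SpecialLinearGroup.coe_mul, mul_apply, Fin.sum_univ_two] at a b
  ext i j
  fin_cases i <;> fin_cases j <;> simp [mul_apply, Fin.sum_univ_two] <;> grind

theorem not_qFree_SL2 [Finite F] (p : ℕ) [NeZero p] [CharP F p] (h2 : (2 : F) ≠ 0) :
    ¬ QFree SL(2, F) := fun h => by
  obtain ⟨a, b, hab⟩ : ∃ a b : F, a ^ 2 + b ^ 2 = -1 := by
    obtain ⟨a, b, hab⟩ := CharP.sq_add_sq F p (-1)
    exact ⟨a, b, by simpa using hab⟩
  let i : SL(2, F) := mkSL 0 (-1) 1 0 (by simp)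
  let j : SL(2, F) := mkSL a b b (-a) (by linear_combination -hab)
  have hi : i ^ 2 = -1 := pow_two_of_tr (by simp [tr, i, mkSL_coe])
  have hj : j ^ 2 = -1 := pow_two_of_tr (by simp [tr, j, mkSL_coe])
  have hij : j * i = -(i * j) := Subtype.ext (by simp [i, j, mkSL_coe])
  have h4 : ∀ {k : SL(2, F)}, k ^ 2 = -1 → IsPGroup 2 (zpowers k) := fun {k} hk =>
    IsPGroup.of_card_dvd_pow (n := 2) (by
      rw [Nat.card_zpowers]; exact orderOf_dvd_of_pow_eq_one (by rw [sq, pow_mul, hk]; simp))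
  have := h _ ((h4 hj).to_sup_of_normal_right' (h4 hi) (zpowers_le.2 (H8.mem_normalizer_of_forall ?_)))
    i (mem_sup_right (mem_zpowers _)) j (mem_sup_left (mem_zpowers _))
    (hi ▸ neg_one_ne_one_SL2 h2) (hj ▸ neg_one_ne_one_SL2 h2)
  · rw [hij, ← neg_one_mul, right_eq_mul] at this
    exact neg_one_ne_one_SL2 h2 this
  · rintro _ ⟨k, rfl⟩
    rw [← conj_zpow, hij, neg_mul, mul_inv_cancel_right, ← neg_one_mul, ← hi]
    exact zpow_mem (mul_mem (pow_mem (mem_zpowers _) _) (mem_zpowers _)) _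

theorem qFree_ree (h : Lie.IsoRee Γ) : QFree Γ := by
  obtain ⟨K, _, _, m, -, hK, ⟨e⟩⟩ := h
  have := charP_of_card_eq_prime_pow (p := 3) hK
  exact (qFree_of_pow_four fun g hg => Subtype.ext
    (PM.sq_eq_one hK g.2 (congrArg Subtype.val hg))).of_injective (f := e.toMonoidHom) e.injective

theorem mem_opMod_of_qFree {G : Type*} [Group G] [Finite G] {p : ℕ} [hp : Fact p.Prime] (hp2 : p ≠ 2)
    {V H : Subgroup G} (hV : IsPGroup p V) (hHV : H ≤ normalizer (V : Set G))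
    [((centralizer (V : Set G)).subgroupOf H).Normal]
    (hq : QFree (H ⧸ (centralizer (V : Set G)).subgroupOf H)) {g : G} (hg : g ∈ H)
    (qg : ⁅⁅V, zpowers g⁆, zpowers g⁆ = ⊥) : g ∈ H8.opMod p H (centralizer (V : Set G)) := by
  refine H8.mem_opMod_of_forall (le_normalizer_centralizer hHV) hg fun x hx => ?_
  have qh := le_bot_iff.1 (H8.quad_conj (hHV hx) (le_normalizer_of_normal (mem_top x)) qg.le)
  have hh := mul_mem (mul_mem hx hg) (inv_mem hx)
  generalize x * g * x⁻¹ = h at *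
  have h5 : closure {g, h} ≤ H := (closure_le _).2 (by rintro _ (rfl | rfl) <;> assumption)
  by_contra h6
  obtain ⟨W1, W2, a1, a2, a3, a4, a5, a6, a7⟩ := H8.exists_section hV (h5.trans hHV) fun h => h6 h.2
  have mg : g ∈ closure {g, h} := subset_closure (by simp)
  have mh : h ∈ closure {g, h} := subset_closure (by simp)
  obtain ⟨F, _, _, _, C, h1, -⟩ := H8.exists_coord hp2 (hV.to_le a2) a1 a5 (a3 mg) (a4 mg) (a3 mh)
    (a4 mh) (fun x hx => H8.quad_elt (qg.le.trans bot_le) (a2 hx))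
    (fun x hx => H8.quad_elt (qh.le.trans bot_le) (a2 hx))
    (fun W b1 b2 b3 b4 => a6 W b1 b2 ((closure_le _).2 (by rintro _ (rfl | rfl) <;> assumption)))
    fun ⟨b1, b2⟩ => a7 ((closure_le _).2 (by
      rintro _ (rfl | rfl)
      exacts [⟨a3 mg, a4 mg, b1⟩, ⟨a3 mh, a4 mh, b2⟩]))
  let E : Subgroup ((H ⧸ (centralizer (V : Set G)).subgroupOf H) × SL(2, F)) :=
    { carrier := {z | ∃ y : H, y = z.1 ∧ C.Rel y z.2}
      one_mem' := ⟨1, rfl, H8.SecMap.rel_of_mem (one_mem _)⟩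
      mul_mem' := by
        rintro ⟨_, _⟩ ⟨_, _⟩ ⟨y, rfl, hy⟩ ⟨z, rfl, hz⟩
        exact ⟨y * z, rfl, hy.mul hz⟩
      inv_mem' := by
        rintro ⟨_, _⟩ ⟨y, rfl, hy⟩
        exact ⟨y⁻¹, rfl, hy.inv⟩ }
  have h7 := H8.involves_of_graph E fun M ⟨y, h8, h9⟩ => h9.unique ((H8.SecMap.rel_one_iff h9.1).2
    fun w hw => by
      rw [(commutatorElement_eq_one_iff_mul_comm (g₁ := (y : G))).2
        ((QuotientGroup.eq_one_iff y).1 h8 w (a2 hw)).symm]
      exact one_mem _)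
  refine not_qFree_SL2 (F := ZMod p) p (H8.two_ne_zero_of_charP hp2 _)
    ((hq.of_involves (H8.involves_trans h7 (H8.involves_subgroup _))).of_injective
      (f := (H8.slp p F).codRestrict _ fun M => ?_) fun a b e => slMap_injective _ (congrArg Subtype.val e))
  obtain ⟨y, hy, h8⟩ := h1 M
  exact ⟨(_, _), ⟨⟨y, h5 hy⟩, rfl, h8⟩, rfl⟩

end Cfsg.H3
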