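import Cfsg.Prelude.Def_LieTwisted

/-! Reflective checks of matrix identities with polynomial entries in characteristic `c`,
and a mirror of the root elements of a Chevalley datum. -/

set_option autoImplicit false
set_option linter.unusedSectionVars false

namespace Cfsg.H3.PM

open Matrix

/-- Polynomials with integer coefficients. -/
abbrev P := Lean.Grind.CommRing.Poly

variable {K : Type*} [Field K] {c : ℕ} [CharP K c] (x : Lean.RArray K)

/-- Evaluation. -/
def ev (p : P) : K := p.denote x

theorem ev_num (k : ℤ) : ev x (.num k) = k := rfl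
theorem ev_var (i : ℕ) : ev x (.ofVar i) = x.get i := Lean.Grind.CommRing.Poly.denote_ofVar x i
theorem ev_add (p q : P) : ev x (p.combineC q c) = ev x p + ev x q :=
  Lean.Grind.CommRing.Poly.denote_combineC x p q
theorem ev_mul (p q : P) : ev x (p.mulC q c) = ev x p * ev x q :=
  Lean.Grind.CommRing.Poly.denote_mulC x p q
theorem ev_pow (p : P) (k : ℕ) : ev x (p.powC k c) = ev x p ^ k :=
  Lean.Grind.CommRing.Poly.denote_powC x p k
theorem ev_smul (k : ℤ) (p : P) : ev x (p.mulConstC k c) = k * ev x p :=
  Lean.Grind.CommRing.Poly.denote_mulConstC x k p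

/-- Test for the zero polynomial. -/
def isZ : P → Bool
  | .num k => k == 0
  | _ => false

theorem ev_of_isZ {p : P} (h : isZ p = true) : ev x p = 0 := by
  cases p <;> simp_all [isZ, ev_num]

variable {l m n : Type*}

/-- Evaluation of matrices. -/
def dn (A : l → m → P) : Matrix l m K := of fun i j => ev x (A i j)

/-- Product of matrices, summing over a list. -/
def mul (c : ℕ) (s : List m) (A : l → m → P) (B : m → n → P) : l → n → P := fun i j =>
  s.foldr (fun k a => bif isZ (A i k) || isZ (B k j) then a else ((A i k).mulC (B k j) c).combineC a c)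
    (.num 0)

theorem dn_mul [Fintype m] {s : List m} (hs : ∀ f : m → K, (s.map f).sum = ∑ k, f k)
    (A : l → m → P) (B : m → n → P) : dn x (mul c s A B) = dn x A * dn x B := by
  ext i j
  rw [mul_apply, ← hs]
  simp only [dn, of_apply, mul]
  clear hs
  induction s with
  | nil => simp [ev_num]
  | cons k s ih =>
    rw [List.foldr_cons, List.map_cons, List.sum_cons, ← ih]
    cases h : (isZ (A i k) || isZ (B k j))
    · simp [ev_add, ev_mul]
    · rcases Bool.or_eq_true_iff.1 h with h | h <;> simp [ev_of_isZ x h]

/-- Equality test modulo `c`. -/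
def eqv (c : ℕ) (s : List l) (t : List m) (A B : l → m → P) : Bool :=
  s.all fun i => t.all fun j => isZ ((A i j).combineC ((B i j).mulConstC (-1) c) c)

theorem dn_eq {s : List l} {t : List m} (hs : ∀ i, i ∈ s) (ht : ∀ j, j ∈ t) {A B : l → m → P}
    (h : eqv c s t A B = true) : dn x A = dn x B := by
  ext i j
  have := ev_of_isZ x (List.all_eq_true.1 (List.all_eq_true.1 h i (hs i)) j (ht j))
  rw [ev_add, ev_smul] at this
  simp only [dn, of_apply]
  linear_combination this

/-- Tabulation of a matrix, to share evaluations. -/
def tab (s : List l) (t : List m) (f : l → ℕ) (g : m → ℕ) (A : l → m → P) : l → m → P :=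
  let T := s.map fun i => t.map (A i)
  fun i j => (T.getD (f i) []).getD (g j) (.num 0)

theorem tab_eq {s : List l} {t : List m} {f : l → ℕ} {g : m → ℕ} (hs : ∀ i, s[f i]? = some i)
    (ht : ∀ j, t[g j]? = some j) (A : l → m → P) : tab s t f g A = A := by
  ext i j
  simp [tab, hs, ht]

/-- Mirror of the root elements. -/
def xP (c : ℕ) (D : Lie.ChevalleyDatum) (r : Fin D.nroots) (t : P) : D.Idx → D.Idx → P :=
  fun row col =>
    match col with
    | Sum.inl i =>
      (match row with
       | Sum.inl i' => if i' = i then .num 1 else .num 0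
       | Sum.inr u => if u = r then t.mulConstC (-((D.cartanSR.getD i.val #[]).getD r.val 0)) c
          else .num 0)
    | Sum.inr s =>
      if s = r then (match row with
        | Sum.inr u => if u = r then .num 1 else .num 0 | Sum.inl _ => .num 0)
      else if s.val = D.negIdx.getD r.val 0 then
        (match row with
         | Sum.inl i => t.mulConstC ((D.coroot.getD r.val #[]).getD i.val 0) c
         | Sum.inr u => if u = s then .num 1 else if u = r then (t.powC 2 c).mulConstC (-1) c
            else .num 0)
      else
        (match row with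
         | Sum.inl _ => .num 0
         | Sum.inr u => (D.chainCoeff r.val s.val u.val).foldr
            (fun km a => ((t.powC km.1 c).mulConstC km.2 c).combineC a c)
            (if u = s then .num 1 else .num 0))

theorem dn_xP (D : Lie.ChevalleyDatum) (r : Fin D.nroots) (t : P) :
    dn x (xP c D r t) = D.xMat K r (ev x t) := by
  ext (i | u) (j | s) <;> simp only [dn, of_apply, xP, Lie.ChevalleyDatum.xMat]
  · split_ifs <;> simp [ev_num]
  · split_ifs <;> simp [ev_num, ev_smul]
  · split_ifs <;> simp [ev_num, ev_smul]
  · by_cases h1 : s = r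
    · simp only [h1, if_true]; split_ifs <;> simp [ev_num]
    by_cases h2 : s.val = D.negIdx.getD r.val 0
    · simp only [h1, h2, if_true, if_false]; split_ifs <;> simp [ev_num, ev_smul, ev_pow]
    simp only [h1, h2, if_false]
    induction D.chainCoeff r.val s.val u.val with
    | nil => split_ifs <;> simp [ev_num]
    | cons a l ih => simp only [List.foldr_cons, ev_add, ev_smul, ev_pow, ih, List.map_cons,
        List.sum_cons]; ring

theorem xMat_map {L : Type*} [Field L] (φ : K →+* L) (D : Lie.ChevalleyDatum) (r : Fin D.nroots)
    (t : K) : (D.xMat K r t).map φ = D.xMat L r (φ t) := by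
  ext (i | u) (j | s) <;> simp only [map_apply, of_apply, Lie.ChevalleyDatum.xMat] <;>
    split_ifs <;> simp [map_list_sum, Function.comp_def]

end Cfsg.H3.PM
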