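import Cfsg.Agent.L0.Alt3
import Cfsg.Agent.FT.Basic6

/-! Central extensions of the alternating groups. -/

set_option autoImplicit false
set_option linter.unusedSectionVars false
set_option linter.unusedSimpArgs false

namespace Cfsg.H3.Sch

open Subgroup Equiv Equiv.Perm Cfsg.L0 Cfsg.H8 Cfsg.FT
open scoped commutatorElement

variable {α : Type*} [Fintype α] [DecidableEq α] {Γ : Type*} [Group Γ] {π : Γ →* Perm α}
  {D : Γ → Prop} {a b c m : α} {x y z g : Γ}

/-- the three-cycle `a ↦ b ↦ c ↦ a` -/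
def cyc (a b c : α) : Perm α := swap a c * swap a b

theorem cyc_conj (σ : Perm α) (a b c : α) : σ * cyc a b c * σ⁻¹ = cyc (σ a) (σ b) (σ c) := by
  rw [cyc, cyc, swap_apply_apply, swap_apply_apply]; group

theorem cyc_inv (a b c : α) : (cyc a b c)⁻¹ = cyc a c b := by simp [cyc]

theorem cyc_rot (h1 : a ≠ b) (h2 : a ≠ c) (h3 : b ≠ c) : cyc a b c = cyc b c a := by
  ext i; simp only [cyc, Perm.mul_apply, swap_apply_def]; split_ifs <;> simp_all

theorem cyc_sq (h1 : b ≠ m) (h2 : b ≠ a) (h3 : m ≠ a) (h4 : b ≠ c) (h5 : m ≠ c) (h6 : a ≠ c) :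
    (cyc b m a * cyc b m c) ^ 2 = 1 := by
  ext i
  have := h1.symm; have := h2.symm; have := h3.symm; have := h4.symm; have := h5.symm
  have := h6.symm
  by_cases e1 : i = b
  · simp [cyc, pow_two, swap_apply_of_ne_of_ne, *]
  by_cases e2 : i = m
  · simp [cyc, pow_two, swap_apply_of_ne_of_ne, *]
  by_cases e3 : i = a
  · simp [cyc, pow_two, swap_apply_of_ne_of_ne, *]
  by_cases e4 : i = c
  · simp [cyc, pow_two, swap_apply_of_ne_of_ne, *]
  simp [cyc, pow_two, swap_apply_of_ne_of_ne, *]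

theorem exists_cyc {σ : Perm α} (h : σ.IsThreeCycle) (ha : a ∈ σ.support) :
    ∃ b c, a ≠ b ∧ a ≠ c ∧ b ≠ c ∧ σ = cyc a b c ∧ σ.support = {a, c, b} := by
  obtain ⟨y, z, h1, h2, h3, h4⟩ := exists_eq_swap_mul_swap h ha
  exact ⟨z, y, h2, h1, h3.symm, h4⟩

/-- canonical lifts of the three-cycles -/
structure Lf (π : Γ →* Perm α) (D : Γ → Prop) : Prop where
  ker : ∀ z, π z = 1 → z ∈ center Γ
  onto : ∀ σ, sign σ = 1 → ∃ g, π g = σ
  three : ∀ y, D y → (π y).IsThreeCycle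
  ex : ∀ σ, IsThreeCycle σ → ∃ y, D y ∧ π y = σ
  uq : ∀ x y, D x → D y → π x = π y → x = y
  cj : ∀ g y, D y → D (g * y * g⁻¹)
  inv : ∀ y, D y → D y⁻¹
  cube : ∀ y, D y → y ^ 3 = 1

/-- a pair `(b m a)`, `(b m c)` -/
def Pr (π : Γ →* Perm α) (D : Γ → Prop) (x y : Γ) : Prop := D x ∧ D y ∧ ∃ b m a c, b ≠ m ∧ b ≠ a ∧
  m ≠ a ∧ b ≠ c ∧ m ≠ c ∧ a ≠ c ∧ π x = cyc b m a ∧ π y = cyc b m c

namespace Lf

variable (h : Lf π D)
include h

theorem cen (p : Pr π D x y) (g : Γ) : g * (x * y) ^ 2 * g⁻¹ = (x * y) ^ 2 := by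
  obtain ⟨-, -, b, m, a, c, h1, h2, h3, h4, h5, h6, e1, e2⟩ := p
  rw [mem_center_iff.1 (h.ker ((x * y) ^ 2) (by rw [map_pow, map_mul, e1, e2, cyc_sq h1 h2 h3 h4 h5 h6])),
    mul_inv_cancel_right]

theorem sq (p : Pr π D x y) : (x * y) ^ 2 * (x * y) ^ 2 = 1 := by
  obtain ⟨d1, d2, b, m, a, c, h1, h2, h3, h4, h5, h6, e1, e2⟩ := id p
  obtain ⟨g, e⟩ := h.onto (swap b m * swap a c) (by simp [h1, h6])
  have k : ∀ x y a c, b ≠ a → m ≠ a → b ≠ c → m ≠ c → D x → D y → π x = cyc b m a → π y = cyc b m c →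
      π g = swap b m * swap a c → g * x * g⁻¹ = y⁻¹ := fun x y a c h2 h3 h4 h5 d1 d2 e1 e2 e =>
    h.uq _ _ (h.cj g x d1) (h.inv y d2) (by
      rw [map_mul, map_mul, map_inv, map_inv, e1, e2, cyc_conj, cyc_inv, cyc_rot h4 h1 h5.symm,
        cyc_rot h5.symm h4.symm h1.symm, e]
      simp [swap_apply_of_ne_of_ne, h1, h2, h3, h4, h5, h4.symm, h5.symm])
  rw [← eq_inv_iff_mul_eq_one, ← inv_pow, mul_inv_rev, ← k x y a c h2 h3 h4 h5 d1 d2 e1 e2 e,
    ← k y x c a h4 h5 h2 h3 d2 d1 e2 e1 (by rw [e, swap_comm a]), conj_mul, conj_pow, h.cen p]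

theorem symm (p : Pr π D x y) : (y * x) ^ 2 = (x * y) ^ 2 := by
  rw [← h.cen p y, ← conj_pow]; congr 1; group

theorem eq {x' y' : Γ} (p : Pr π D x y) (p' : Pr π D x' y') : (x * y) ^ 2 = (x' * y') ^ 2 := by
  obtain ⟨d1, d2, b, m, a, c, h1, h2, h3, h4, h5, h6, e1, e2⟩ := id p
  obtain ⟨d3, d4, b', m', a', c', k1, k2, k3, k4, k5, k6, e3, e4⟩ := id p'
  obtain ⟨σ, e⟩ := Perm.exists_extending_pair (f := ![b, m, a, c]) (g := ![b', m', a', c'])
    (by intro i j; fin_cases i <;> fin_cases j <;> simp_all [eq_comm])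
    (by intro i j; fin_cases i <;> fin_cases j <;> simp_all [eq_comm])
  have s0 : σ b = b' := e 0
  have s1 : σ m = m' := e 1
  have s2 : σ a = a' := e 2
  have s3 : σ c = c' := e 3
  have k : ∀ g x x' a a', D x → D x' → π x = cyc b m a → π x' = cyc b' m' a' → π g b = b' → π g m = m' →
      π g a = a' → g * x * g⁻¹ = x' := fun g x x' a a' d1 d3 e1 e3 s0 s1 s2 =>
    h.uq _ _ (h.cj g x d1) d3 (by rw [map_mul, map_mul, map_inv, e1, e3, cyc_conj, s0, s1, s2])
  rcases Int.units_eq_one_or (sign σ) with o | o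
  · obtain ⟨g, rfl⟩ := h.onto σ o
    rw [← h.cen p g, ← conj_pow, ← conj_mul, k g x x' a a' d1 d3 e1 e3 s0 s1 s2,
      k g y y' c c' d2 d4 e2 e4 s0 s1 s3]
  · obtain ⟨g, e⟩ := h.onto (σ * swap a c) (by simp [o, h6])
    have t0 : π g b = b' := by simp [e, swap_apply_of_ne_of_ne, h2, h4, s0]
    have t1 : π g m = m' := by simp [e, swap_apply_of_ne_of_ne, h3, h5, s1]
    rw [← h.cen p g, ← conj_pow, ← conj_mul, k g x y' a c' d1 d4 e1 e4 t0 t1 (by simp [e, s3]),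
      k g y x' c a' d2 d3 e2 e3 t0 t1 (by simp [e, s2]), h.symm p']

theorem step {W H K : Subgroup Γ} (hW : ∀ x y, Pr π D x y → (x * y) ^ 2 ∈ W) (l : W ≤ H)
    (hH : ∀ y ∈ K, D y → π y m = m → y ∈ H) (d1 : D x) (d2 : D y) (xK : x ∈ K) (yK : y ∈ K)
    (n1 : π x m ≠ m) (n2 : π y m ≠ m) :
    x * y ∈ H ∨ ∃ k ∈ H, ∃ d ∈ K, D d ∧ π d m ≠ m ∧ x * y = k * d := by
  have iv : ∀ y : Γ, π y m ≠ m → π y⁻¹ m ≠ m := fun y n e =>
    n (by rw [map_inv, Perm.inv_eq_iff_eq] at e; exact e.symm)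
  obtain ⟨a, b, h1, h2, h3, e1, -⟩ := exists_cyc (h.three x d1) (mem_support.2 n1)
  have xb : π x b = m := by simp [e1, cyc, swap_apply_of_ne_of_ne, h2.symm, h3.symm]
  by_cases n3 : π y b = b
  · exact .inr ⟨_, hH _ (mul_mem (mul_mem xK yK) (inv_mem xK)) (h.cj x y d2) (by simp [← xb, n3]),
      x, xK, d1, n1, by group⟩
  obtain ⟨u, c, k1, k2, k3, e2, s⟩ := exists_cyc (h.three y d2) (mem_support.2 n3)
  rw [cyc_rot h1 h2 h3, cyc_rot h3 h1.symm h2.symm] at e1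
  have f : ∀ y ∈ K, ∀ c, D y → b ≠ c → m ≠ c → a ≠ c → π y = cyc b m c →
      x * y * (x * y) ∈ H ∧ y⁻¹ * x⁻¹ * y ∈ H :=
    fun y yK c d k1 k2 k3 e => ⟨l (pow_two (x * y) ▸ hW x y
      ⟨d1, d, b, m, a, c, h2.symm, h3.symm, h1, k1, k2, k3, e1, e⟩),
      hH _ (mul_mem (mul_mem (inv_mem yK) (inv_mem xK)) yK) (by simpa using h.cj y⁻¹ _ (h.inv x d1)) (by
        simp [e, e1, cyc, swap_apply_of_ne_of_ne, h1, h2, h3, h1.symm, h2.symm, h3.symm, k1, k2, k3,
          k1.symm, k2.symm, k3.symm])⟩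
  have := mem_support.2 n2
  rw [s, Finset.mem_insert, Finset.mem_insert, Finset.mem_singleton] at this
  rcases this.resolve_left h2 with rfl | rfl
  · by_cases e : a = u
    · refine .inl ?_
      rw [h.uq y x⁻¹ d2 (h.inv x d1) (by rw [map_inv, e1, e2, cyc_inv, e]), mul_inv_cancel]
      exact one_mem _
    · obtain ⟨p, q⟩ := f y⁻¹ (inv_mem yK) u (h.inv y d2) k1 k3.symm e (by rw [map_inv, e2, cyc_inv])
      refine .inl ?_
      rw [show x * y = x * y⁻¹ * (x * y⁻¹) * (y⁻¹⁻¹ * x⁻¹ * y⁻¹) * y ^ 3 by group, h.cube y d2, mul_one]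
      exact mul_mem p q
  · by_cases e : a = c
    · obtain rfl := h.uq y x d2 d1 (by rw [e1, e2, e])
      refine .inr ⟨1, one_mem _, y⁻¹, inv_mem yK, h.inv y d1, iv y n1, ?_⟩
      rw [one_mul, eq_inv_iff_mul_eq_one, ← pow_three', h.cube y d1]
    · obtain ⟨p, q⟩ := f y yK c d2 k2 k3 e e2
      exact .inr ⟨_, mul_mem p q, y⁻¹, inv_mem yK, h.inv y d2, iv y n2, by group⟩

end Lf

/-- the elements that fix the points outside `s` -/
def fx (π : Γ →* Perm α) (s : Finset α) : Subgroup Γ where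
  carrier := {g | ∀ i ∉ s, π g i = i}
  one_mem' := by simp
  mul_mem' := fun h k i hi => by simp [k i hi, h i hi]
  inv_mem' := fun h i hi => by rw [map_inv, Perm.inv_eq_iff_eq, h i hi]

/-- the subgroup generated by `W` and the lifts supported in `s` -/
def gn (π : Γ →* Perm α) (D : Γ → Prop) (W : Subgroup Γ) (s : Finset α) : Subgroup Γ :=
  closure ({y | D y ∧ y ∈ fx π s} ∪ W)

namespace Lf

variable (h : Lf π D)
include h

theorem ker_le {W : Subgroup Γ} (hW : ∀ x y, Pr π D x y → (x * y) ^ 2 ∈ W) (l : W ≤ π.ker)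
    (s : Finset α) : ∀ g ∈ gn π D W s, π g = 1 → g ∈ W := by
  have wf : ∀ s, W ≤ fx π s := fun s w hw i _ => by rw [l hw]; rfl
  induction s using Finset.induction with
  | empty =>
    intro g hg _
    refine (closure_le W).2 (fun y hy => hy.resolve_left fun hy => ?_) hg
    exact (h.three y hy.1).isCycle.ne_one (Perm.ext fun i => hy.2 i (by simp))
  | insert m s hm ih => ?_
  have lf : gn π D W s ≤ fx π s := (closure_le _).2 fun y hy => hy.elim (·.2) (wf s ·)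
  have lw : W ≤ gn π D W s := fun w hw => subset_closure (.inr hw)
  have hH : ∀ y ∈ fx π (insert m s), D y → π y m = m → y ∈ gn π D W s := fun y yK d e =>
    subset_closure (.inl ⟨d, fun i hi => if c : i = m then c ▸ e else yK i (by simp [hi, c])⟩)
  let P g := g ∈ gn π D W s ∨ ∃ k ∈ gn π D W s, ∃ d ∈ fx π (insert m s), D d ∧ π d m ≠ m ∧ g = k * d
  have st : ∀ g y, y ∈ {y | D y ∧ y ∈ fx π (insert m s)} ∪ (W : Set Γ) → P g → P (g * y) := by
    rintro g y (⟨d, yK⟩ | hy) (p | ⟨k, p, x, xK, d', n, rfl⟩)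
    · by_cases e : π y m = m
      · exact .inl (mul_mem p (hH y yK d e))
      · exact .inr ⟨g, p, y, yK, d, e, rfl⟩
    · by_cases e : π y m = m
      · refine .inr ⟨_, mul_mem p (hH y yK d e), y⁻¹ * x * y⁻¹⁻¹,
          mul_mem (mul_mem (inv_mem yK) xK) (inv_mem (inv_mem yK)), h.cj _ _ d', fun c => n ?_, by group⟩
        rwa [inv_inv, map_mul, map_mul, map_inv, Perm.mul_apply, Perm.mul_apply, Perm.inv_eq_iff_eq,
          e] at c
      · rcases h.step hW lw hH d' d xK yK n e with q | ⟨k', q, r, r1, r2, r3, r4⟩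
        · exact .inl (mul_assoc k x y ▸ mul_mem p q)
        · exact .inr ⟨_, mul_mem p q, r, r1, r2, r3, by rw [mul_assoc, r4, mul_assoc]⟩
    · exact .inl (mul_mem p (lw hy))
    · exact .inr ⟨_, mul_mem p (lw hy), x, xK, d', n, by
        rw [mul_assoc, mul_assoc, mem_center_iff.1 (h.ker y (l hy))]⟩
  intro g hg e
  have : P g := closure_induction_right (p := fun g _ => P g) (.inl (one_mem _))
    (fun x _ y hy p => st x y hy p) (fun x _ y hy p => st x y⁻¹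
      (hy.imp (fun k => ⟨h.inv y k.1, inv_mem k.2⟩) (inv_mem ·)) p) hg
  rcases this with p | ⟨k, p, x, -, -, n, rfl⟩
  · exact ih g p e
  · refine absurd ((π k).injective ?_) n
    rw [← Perm.mul_apply, ← map_mul, e, lf p m hm]; rfl

theorem card_le [Finite Γ] (hs : ∀ g, sign (π g) = 1) (hZ : π.ker ≤ commutator Γ) :
    Nat.card π.ker ≤ 2 := by
  obtain ⟨z, z1, z2, hz⟩ : ∃ z, π z = 1 ∧ z ^ 2 = 1 ∧ ∀ x y, Pr π D x y → (x * y) ^ 2 ∈ zpowers z := by
    by_cases c : ∃ x y, Pr π D x y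
    · obtain ⟨x, y, p⟩ := c
      obtain ⟨-, -, b, m, a, c, h1, h2, h3, h4, h5, h6, e1, e2⟩ := id p
      exact ⟨(x * y) ^ 2, by rw [map_pow, map_mul, e1, e2, cyc_sq h1 h2 h3 h4 h5 h6],
        (pow_two _).trans (h.sq p), fun x' y' p' => h.eq p p' ▸ mem_zpowers _⟩
    · exact ⟨1, map_one π, one_pow 2, fun x y p => absurd ⟨x, y, p⟩ c⟩
  have k : ∀ g, ∃ u ∈ gn π D (zpowers z) Finset.univ, g⁻¹ * u ∈ center Γ := fun g => by
    have : alternatingGroup α ≤ (gn π D (zpowers z) Finset.univ).map π := by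
      rw [← closure_three_cycles_eq_alternating, closure_le]
      intro σ hσ
      obtain ⟨y, d, e⟩ := h.ex σ hσ
      exact ⟨y, subset_closure (.inl ⟨d, by simp [fx]⟩), e⟩
    obtain ⟨u, hu, e⟩ := this (mem_alternatingGroup.2 (hs g))
    exact ⟨u, hu, h.ker _ (by simp [e])⟩
  have l : commutator Γ ≤ gn π D (zpowers z) Finset.univ := commutator_le.2 fun a _ b _ => by
    obtain ⟨u, hu, e1⟩ := k a
    obtain ⟨v, hv, e2⟩ := k b
    have : ⁅a, b⁆ = ⁅u, v⁆ := by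
      have f : ∀ a u b : Γ, a⁻¹ * u ∈ center Γ → ⁅u, b⁆ = ⁅a, b⁆ := fun a u b e => by
        rw [show ⁅u, b⁆ = a * (a⁻¹ * u * b) * u⁻¹ * b⁻¹ by group, ← mem_center_iff.1 e]; group
      rw [f a u v e1, ← commutatorElement_inv v a, f b v a e2, commutatorElement_inv]
    exact this ▸ mul_mem (mul_mem (mul_mem hu hv) (inv_mem hu)) (inv_mem hv)
  refine (card_le_of_le fun g hg => h.ker_le hz (zpowers_le.2 z1) _ g (l (hZ hg)) hg).trans ?_
  rw [Nat.card_zpowers]
  exact orderOf_le_of_pow_eq_one two_pos z2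

end Lf

theorem cube_eq (hk : ∀ z, π z = 1 → z ∈ center Γ) (e : π x = π y) (h1 : x ^ 3 = 1) (h2 : y ^ 3 = 1) :
    (y⁻¹ * x) ^ 3 = 1 := by
  have c : Commute y (y⁻¹ * x) := mem_center_iff.1 (hk _ (by simp [e])) y
  rw [← h1, ← one_mul (_ ^ 3), ← h2, ← c.mul_pow, mul_inv_cancel_left]

theorem lf_small [Finite Γ] (h5 : Fintype.card α ≤ 5) (hk : ∀ z, π z = 1 → z ∈ center Γ)
    (ho : ∀ σ, sign σ = 1 → ∃ g, π g = σ) (hZ : π.ker ≤ commutator Γ) :
    Lf π fun y => (π y).IsThreeCycle ∧ y ^ 3 = 1 := by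
  have : Fact (Nat.Prime 3) := ⟨Nat.prime_three⟩
  have n3 : ∀ w, π w = 1 → w ^ 3 = 1 → w = 1 := fun w w1 w3 => by
    obtain ⟨P, hP, l⟩ := exists_syl_ge Nat.prime_three (H := ⊤) (Q := zpowers w)
      (IsPGroup.of_card_dvd_pow (n := 1) (by simpa using orderOf_dvd_of_pow_eq_one w3)) le_top
    have c : IsCyclic (π.comp P.subtype).range := by
      obtain ⟨k, e⟩ := IsPGroup.iff_card.1
        (hP.isPGroup.of_surjective _ (π.comp P.subtype).rangeRestrict_surjective)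
      have d := (π.comp P.subtype).range.card_subgroup_dvd_card
      rw [e, Nat.card_perm, Nat.card_eq_fintype_card] at d
      replace d := d.trans (Nat.factorial_dvd_factorial h5)
      refine isCyclic_of_card_dvd_prime (p := 3) (e ▸ ?_)
      rcases k with _ | _ | k
      · simp
      · simp
      · exact absurd ((pow_dvd_pow 3 (by omega : 2 ≤ k + 1 + 1)).trans d) (by decide)
    have a : Abel P := abel_iff.2 ((π.comp P.subtype).rangeRestrict.isMulCommutative_of_isCyclic_of_ker_le_center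
      fun x hx => mem_center_iff.2 fun y => Subtype.ext
        (mem_center_iff.1 (hk x (congrArg Subtype.val hx)) y))
    exact (eq_bot_iff_forall _).1 (abel_syl_inf_der_cent Nat.prime_three hP a) w
      ⟨⟨l (mem_zpowers w), hZ w1⟩, mem_cent.2 fun y _ => mem_center_iff.1 (hk w w1) y⟩
  refine ⟨hk, ho, fun _ => (·.1), fun σ hσ => ?_, fun x y d1 d2 e => ?_, fun g y d => ⟨?_, ?_⟩,
    fun y d => ⟨map_inv π y ▸ d.1.inv, by rw [inv_pow, d.2, inv_one]⟩, fun _ => (·.2)⟩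
  · obtain ⟨y, rfl⟩ := ho σ hσ.sign
    have s3 : π y ^ 3 = 1 := hσ.orderOf ▸ pow_orderOf_eq_one _
    have nd : ¬ 3 ∣ Nat.card π.ker := fun d => by
      obtain ⟨w, hw⟩ := exists_prime_orderOf_dvd_card' 3 d
      have := n3 w w.2 (congrArg Subtype.val (hw ▸ pow_orderOf_eq_one w))
      rw [show w = 1 from Subtype.ext this, orderOf_one] at hw
      omega
    have e : π (y ^ Nat.card π.ker ^ 2) = π y := by
      rw [map_pow, pow_eq_pow_mod _ s3, show Nat.card π.ker ^ 2 % 3 = 1 by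
        have : Nat.card π.ker % 3 = 1 ∨ Nat.card π.ker % 3 = 2 := by omega
        rcases this with e | e <;> rw [Nat.pow_mod, e], pow_one]
    refine ⟨_, ⟨e ▸ hσ, ?_⟩, e⟩
    have := congrArg Subtype.val (pow_card_eq_one' (x := (⟨y ^ 3, by simpa using s3⟩ : π.ker)))
    rw [← pow_mul, mul_comm, pow_two, ← mul_assoc, pow_mul, pow_mul, show (y ^ 3) ^ _ = 1 from this,
      one_pow]
  · exact (inv_mul_eq_one.1 (n3 _ (by simp [e]) (cube_eq hk e d1.2 d2.2))).symm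
  · rw [map_mul, map_mul, map_inv, IsThreeCycle, cycleType_conj]; exact d.1
  · rw [conj_pow, d.2]; group

theorem comm_lift (h8 : 8 ≤ Fintype.card α) (hk : ∀ z, π z = 1 → z ∈ center Γ)
    (hs : ∀ g, sign (π g) = 1) (ho : ∀ σ, sign σ = 1 → ∃ g, π g = σ) (hy : (π y).IsThreeCycle)
    (hc : π g * π y = π y * π g) : g * y = y * g := by
  obtain ⟨a, ha⟩ := Finset.card_pos.1 (hy.card_support ▸ three_pos : 0 < (π y).support.card)
  have k : ∀ g, π g ∈ altOn (π y).supportᶜ → g * y = y * g := fun g hg => by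
    let A := (altOn (π y).supportᶜ).comap π
    have c : ⁅A, zpowers y⁆ ≤ center Γ := commutator_le.2 fun u hu v hv => hk _ (by
      obtain ⟨i, rfl⟩ := hv
      rw [map_commutatorElement, commutatorElement_eq_one_iff_commute, map_zpow]
      exact (commute_of_mem_altOn disjoint_compl_left hu (mem_altOn.2 ⟨hs y, le_rfl⟩)).zpow_right i)
    have z : ∀ B : Subgroup Γ, B ≤ center Γ → ⁅B, A⁆ = ⊥ := fun B l =>
      commutator_eq_bot_iff_le_centralizer.2 (l.trans (center_le_centralizer _))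
    have t := commutator_commutator_eq_bot_of_rotate (z _ c) (z _ (commutator_comm A _ ▸ c))
    have p : ⁅altOn (π y).supportᶜ, altOn (π y).supportᶜ⁆ = altOn (π y).supportᶜ := by
      rw [altOn, ← map_commutator, commutator_alternatingGroup_eq_self]
      simp only [Nat.card_eq_fintype_card, Fintype.card_coe, Finset.card_compl, hy.card_support]
      omega
    have m : A.map π = altOn (π y).supportᶜ :=
      map_comap_eq_self fun σ hσ => ho σ (mem_altOn.1 hσ).1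
    rw [← p, ← m, ← map_commutator] at hg
    obtain ⟨u, hu, e⟩ := hg
    have c1 : y * u = u * y := commutator_eq_bot_iff_le_centralizer.1 t hu y (mem_zpowers y)
    rw [show g = u * (u⁻¹ * g) by group, mul_assoc, ← mem_center_iff.1 (hk (u⁻¹ * g) (by simp [e])),
      ← mul_assoc, ← c1, mul_assoc]
  obtain ⟨i, e⟩ := hy.isCycle.exists_zpow_eq (mem_support.1 ha)
    (mem_support.1 (apply_mem_support_of_commute hc ha))
  have c : Commute (π (y ^ (-i) * g)) (π y) := by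
    rw [map_mul, map_zpow]; exact ((Commute.refl _).zpow_left _).mul_left hc
  have := k (y ^ (-i) * g) (mem_altOn'.2 ⟨hs _, fun x hx => by
    obtain ⟨j, rfl⟩ := hy.isCycle.exists_zpow_eq (mem_support.1 ha) (mem_support.1 (by simpa using hx))
    rw [← Perm.mul_apply, (c.zpow_right j).eq, Perm.mul_apply]
    congr 1
    rw [map_mul, map_zpow, Perm.mul_apply, ← e, ← Perm.mul_apply]; simp⟩)
  rwa [← mul_assoc y, ← ((Commute.refl y).zpow_left _).eq, mul_assoc, mul_assoc,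
    mul_left_cancel_iff] at this

theorem lf_big (h8 : 8 ≤ Fintype.card α) (hk : ∀ z, π z = 1 → z ∈ center Γ)
    (hs : ∀ g, sign (π g) = 1) (ho : ∀ σ, sign σ = 1 → ∃ g, π g = σ) :
    Lf π fun y => (π y).IsThreeCycle ∧ y ^ 3 = 1 ∧ ∃ g, g * y * g⁻¹ = y⁻¹ := by
  refine ⟨hk, ho, fun _ => (·.1), fun σ hσ => ?_, fun x y ⟨d1, x3, g, e1⟩ ⟨d2, y3, f, e2⟩ e => ?_,
    fun g y ⟨d1, d2, f, e⟩ => ⟨?_, ?_, g * f * g⁻¹, ?_⟩, fun y ⟨d1, d2, f, e⟩ =>
    ⟨map_inv π y ▸ d1.inv, by rw [inv_pow, d2, inv_one], f, by rw [← conj_inv, e]⟩, fun _ => (·.2.1)⟩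
  · obtain ⟨y, rfl⟩ := ho σ hσ.sign
    have s3 : π y ^ 3 = 1 := hσ.orderOf ▸ pow_orderOf_eq_one _
    obtain ⟨a, ha⟩ := Finset.card_pos.1 (hσ.card_support ▸ three_pos : 0 < (π y).support.card)
    obtain ⟨b, c, h1, h2, h3, e, s⟩ := exists_cyc hσ ha
    obtain ⟨d, hd, f, hf, n⟩ := Finset.one_lt_card.1
      (by rw [Finset.card_compl, hσ.card_support]; omega : 1 < (π y).supportᶜ.card)
    simp only [s, Finset.mem_compl, Finset.mem_insert, Finset.mem_singleton, not_or] at hd hf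
    obtain ⟨t, ht⟩ := ho (swap b c * swap d f) (by simp [h3, n])
    have t1 : π t * π y * (π t)⁻¹ = (π y)⁻¹ := by
      rw [e, cyc_conj, cyc_inv, ht]
      simp [swap_apply_of_ne_of_ne, h1, h2, Ne.symm hd.1, Ne.symm hf.1, Ne.symm hd.2.1, Ne.symm hf.2.1,
        Ne.symm hd.2.2, Ne.symm hf.2.2]
    have t2 : t * t ∈ center Γ := hk _ (by
      have : Commute (swap b c) (swap d f) := (disjoint_swap_swap (by
        simp [h3, n, Ne.symm hd.2.1, Ne.symm hf.2.1, Ne.symm hd.2.2, Ne.symm hf.2.2])).commute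
      rw [map_mul, ht, ← pow_two, this.mul_pow]; simp [pow_two])
    have e1 : π ⁅t, y⁆ = π y := by
      rw [map_commutatorElement, commutatorElement_def, t1, ← mul_inv_rev, inv_eq_iff_mul_eq_one,
        ← pow_three', s3]
    have i : t * ⁅t, y⁆ * t⁻¹ = ⁅t, y⁆⁻¹ := by
      rw [show t * ⁅t, y⁆ * t⁻¹ = t * t * y * t⁻¹ * y⁻¹ * t⁻¹ by group, ← mem_center_iff.1 t2]; group
    have c3 : t * ⁅t, y⁆ ^ 3 * t⁻¹ = ⁅t, y⁆ ^ 3 := by
      rw [mem_center_iff.1 (hk (⁅t, y⁆ ^ 3) (by rw [map_pow, e1, s3])), mul_inv_cancel_right]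
    rw [← conj_pow, i, inv_pow, inv_eq_iff_mul_eq_one, ← pow_add] at c3
    have e4 : π (⁅t, y⁆ ^ 4) = π y := by rw [map_pow, e1, pow_succ, s3, one_mul]
    exact ⟨_, ⟨e4 ▸ hσ, by rw [← pow_mul, show 4 * 3 = (3 + 3) * 2 from rfl, pow_mul, c3, one_pow], t,
      by rw [← conj_pow, i, inv_pow]⟩, e4⟩
  · have c := mem_center_iff.1 (hk (y⁻¹ * x) (by simp [e]))
    have w3 := cube_eq hk e x3 y3
    have k := comm_lift (g := f⁻¹ * g) h8 hk hs ho d2 (by
      have a := congrArg π e1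
      have b := congrArg π e2
      simp only [map_mul, map_inv, e] at a b ⊢
      rw [← b] at a
      rw [show (π f)⁻¹ * π g * π y = (π f)⁻¹ * (π g * π y * (π g)⁻¹) * π g by group, a]; group)
    have i : g * y * g⁻¹ = y⁻¹ := by
      rw [← e2, show g * y * g⁻¹ = f * (f⁻¹ * g * y) * g⁻¹ by group, k]; group
    generalize hw : y⁻¹ * x = w at c w3
    obtain rfl : x = y * w := by rw [← hw]; group
    have : w ^ 2 = 1 := by
      rw [← mul_assoc, mul_assoc, ← c, ← mul_assoc, i, c y, mul_inv_rev, mul_left_cancel_iff] at e1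
      rw [pow_two, ← eq_inv_iff_mul_eq_one, ← e1]
    rw [pow_succ, this, one_mul] at w3
    rw [w3, mul_one]
  · rw [map_mul, map_mul, map_inv, IsThreeCycle, cycleType_conj]; exact d1
  · rw [conj_pow, d2]; group
  · rw [conj_mul, conj_inv, conj_mul, conj_inv, e]

theorem schur [Finite Γ] (h6 : Fintype.card α ≠ 6) (h7 : Fintype.card α ≠ 7) (Z : Subgroup Γ) [Z.Normal]
    (hZc : Z ≤ center Γ) (hZd : Z ≤ commutator Γ) (e : Γ ⧸ Z ≃* alternatingGroup α) :
    Nat.card Z ≤ 2 := by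
  let π : Γ →* Perm α := (alternatingGroup α).subtype.comp (e.toMonoidHom.comp (QuotientGroup.mk' Z))
  have k : π.ker = Z := by ext g; simp [π]
  have hk : ∀ z, π z = 1 → z ∈ center Γ := fun z hz => hZc (k ▸ hz)
  have hs : ∀ g, sign (π g) = 1 := fun g => mem_alternatingGroup.1 (e g).2
  have ho : ∀ σ, sign σ = 1 → ∃ g, π g = σ := fun σ hσ => by
    obtain ⟨g, hg⟩ := (e.surjective.comp (QuotientGroup.mk'_surjective Z)) ⟨σ, mem_alternatingGroup.2 hσ⟩
    exact ⟨g, congrArg Subtype.val hg⟩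
  rw [← k] at hZd ⊢
  by_cases c : Fintype.card α ≤ 5
  · exact (lf_small c hk ho hZd).card_le hs hZd
  · exact (lf_big (by omega) hk hs ho).card_le hs hZd

end Cfsg.H3.Sch
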