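import Cfsg.Agent.H3.Schur

/-! The double covers of the alternating groups. -/

set_option autoImplicit false
set_option linter.unusedSectionVars false
set_option linter.unusedSimpArgs false

namespace Cfsg.H3.Sch

open Subgroup Equiv Equiv.Perm

variable {α : Type} [Fintype α] [DecidableEq α] {A : Type} [Ring A] {e : α → A} {a b c d : α}

/-- anticommuting square roots of one in characteristic three -/
structure Cl (e : α → A) : Prop where
  ne : (-1 : A) ≠ 1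
  two : (1 : A) + 1 = -1
  sq : ∀ i, e i * e i = 1
  ac : ∀ i j, i ≠ j → e i * e j = -(e j * e i)

theorem exists_cl (α : Type) [Fintype α] [DecidableEq α] : ∃ (A : Type) (_ : Ring A) (e : α → A), Cl e := by
  let Q : QuadraticForm (ZMod 3) (α → ZMod 3) := QuadraticMap.weightedSumSquares (ZMod 3) (1 : α → ZMod 3)
  let i2 : Invertible (2 : ZMod 3) := ⟨2, rfl, rfl⟩
  have t : (1 : CliffordAlgebra Q) + 1 = -1 := by
    rw [← (algebraMap (ZMod 3) _).map_one, ← map_add, ← map_neg]; rfl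
  refine ⟨CliffordAlgebra Q, inferInstance, fun i => CliffordAlgebra.ι Q (Pi.single i 1), fun h => ?_, t,
    fun i => ?_, fun i j h => CliffordAlgebra.ι_mul_ι_comm_of_isOrtho ?_⟩
  · rw [h] at t; simp at t
  · rw [CliffordAlgebra.ι_sq_scalar]; simp [Q, Pi.single_apply]
  · simp [QuadraticMap.IsOrtho, Q, Pi.single_apply, mul_add, add_mul, Finset.sum_add_distrib, h, h.symm]

namespace Cl

variable (h : Cl e)
include h

theorem u_sq (n : a ≠ b) : (e a - e b) * (e a - e b) = -1 := by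
  rw [sub_mul, mul_sub, mul_sub, h.sq, h.sq, h.ac a b n, ← h.two]; abel

theorem u_e (n : a ≠ b) (i : α) : (e a - e b) * e i = -(e (swap a b i) * (e a - e b)) := by
  by_cases c : i = a
  · simp [c, sub_mul, mul_sub, h.sq]
  by_cases k : i = b
  · simp [k, sub_mul, mul_sub, h.sq]
  rw [swap_apply_of_ne_of_ne c k, sub_mul, mul_sub, h.ac i a c, h.ac i b k]; abel

theorem u_u (n : a ≠ b) (i j : α) :
    (e a - e b) * (e i - e j) = (e (swap a b j) - e (swap a b i)) * (e a - e b) := by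
  rw [mul_sub, h.u_e n, h.u_e n, sub_mul (e _)]; abel

end Cl

/-- the lift of `cyc a b c` -/
def dl (e : α → A) (a b c : α) : A := (e a - e c) * (e a - e b)

theorem neg_neg_u (a b c d : α) : (e a - e b) * (e c - e d) = (e b - e a) * (e d - e c) := by
  rw [← neg_mul_neg, neg_sub, neg_sub]

namespace Cl

variable (h : Cl e)
include h

theorem rot (h1 : a ≠ b) (h2 : a ≠ c) (h3 : b ≠ c) : dl e a b c = dl e b c a := by
  rw [dl, dl, h.u_u h1.symm, neg_neg_u]; simp [swap_apply_of_ne_of_ne, h2.symm, h3.symm]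

theorem inv (h1 : a ≠ b) (h2 : a ≠ c) : dl e a b c * dl e a c b = 1 := by
  rw [dl, dl, mul_assoc, ← mul_assoc (e a - e b), h.u_sq h1, neg_one_mul, mul_neg, h.u_sq h2, neg_neg]

theorem two_eq (h1 : a ≠ b) (h2 : a ≠ c) (h3 : b ≠ c) : dl e a b c * dl e a b c = dl e a c b := by
  nth_rw 2 [h.rot h1 h2 h3]
  rw [h.rot h2 h1 h3.symm, dl, dl, dl, neg_neg_u b a, mul_assoc, ← mul_assoc (e a - e b), h.u_sq h1,
    neg_one_mul, mul_neg, ← neg_mul, neg_sub]

theorem dl_e (h1 : a ≠ b) (h2 : a ≠ c) (i : α) : dl e a b c * e i = e (cyc a b c i) * dl e a b c := by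
  rw [dl, mul_assoc, h.u_e h1, mul_neg, ← mul_assoc, h.u_e h2]; simp [cyc, mul_assoc]

theorem pr {m : α} (h1 : b ≠ m) (h2 : b ≠ a) (h3 : m ≠ a) (h4 : b ≠ c) (h5 : m ≠ c) (h6 : a ≠ c) :
    (dl e b m a * dl e b m c) ^ 2 = -1 := by
  have k : dl e b m a * dl e b m c = (e b - e a) * (e m - e c) := by
    rw [dl, dl, mul_assoc, ← mul_assoc (e b - e m), h.u_u h1, mul_assoc, h.u_sq h1]
    simp [swap_apply_of_ne_of_ne, h4.symm, h5.symm]
  rw [k, pow_two]
  nth_rw 1 [h.u_u h2]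
  rw [swap_apply_of_ne_of_ne h4.symm h6.symm, swap_apply_of_ne_of_ne h1.symm h3, mul_assoc,
    ← mul_assoc (e b - e a), h.u_sq h2, neg_one_mul, mul_neg, ← neg_mul, neg_sub, h.u_sq h5]

theorem uq {a' b' c' : α} (h1 : a ≠ b) (h2 : a ≠ c) (h3 : b ≠ c) (k1 : a' ≠ b') (k2 : a' ≠ c')
    (k3 : b' ≠ c') (q : cyc a b c = cyc a' b' c') : dl e a b c = dl e a' b' c' := by
  have f : ∀ a b c : α, a ≠ b → a ≠ c → b ≠ c → cyc a b c a = b ∧ cyc a b c b = c := fun a b c h1 h2 h3 => by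
    simp [cyc, swap_apply_of_ne_of_ne, h1.symm, h3]
  have k : ∀ b c, a' ≠ b → a' ≠ c → b ≠ c → cyc a' b c = cyc a' b' c' → dl e a' b c = dl e a' b' c' :=
    fun b c h1 h2 h3 q => by
      obtain rfl : b = b' := by rw [← (f _ _ _ h1 h2 h3).1, q, (f _ _ _ k1 k2 k3).1]
      rw [← (f _ _ _ h1 h2 h3).2, q, (f _ _ _ k1 k2 k3).2]
  by_cases e1 : a = a'
  · subst e1; exact k b c h1 h2 h3 q
  rw [cyc_rot h1 h2 h3] at q
  rw [h.rot h1 h2 h3]
  by_cases e2 : b = a'
  · subst e2; exact k c a h3 h1.symm h2.symm q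
  rw [cyc_rot h3 h1.symm h2.symm] at q
  rw [h.rot h3 h1.symm h2.symm]
  by_cases e3 : c = a'
  · subst e3; exact k a b h2.symm h3.symm h1 q
  refine absurd ((f _ _ _ k1 k2 k3).1.symm.trans ?_) k1.symm
  rw [← q]; simp [cyc, swap_apply_of_ne_of_ne, Ne.symm e1, Ne.symm e2, Ne.symm e3]

end Cl

/-- the canonical lifts -/
def Dl (e : α → A) (y : Aˣ × Perm α) : Prop :=
  ∃ a b c, a ≠ b ∧ a ≠ c ∧ b ≠ c ∧ y.1 = dl e a b c ∧ y.2 = cyc a b c

theorem cover (h4 : 4 ≤ Fintype.card α) : ∃ (Γ : Type) (_ : Group Γ) (_ : Finite Γ) (z : Γ)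
    (_ : z ∈ center Γ), orderOf z = 2 ∧ z ∈ commutator Γ ∧ ∃ _ : (zpowers z).Normal,
      Nonempty (Γ ⧸ zpowers z ≃* alternatingGroup α) := by
  obtain ⟨A, _, e, h⟩ := exists_cl α
  let Γ := closure {y | Dl e y}
  let π : Γ →* Perm α := (MonoidHom.snd _ _).comp Γ.subtype
  have t3 : ∀ y, Dl e y → y.2.IsThreeCycle := fun y ⟨a, b, c, h1, h2, h3, _, q⟩ =>
    q ▸ isThreeCycle_swap_mul_swap_same h2 h1 h3.symm
  have cm : ∀ g ∈ Γ, ∀ i, g.1 * e i = e (g.2 i) * g.1 := fun g hg => by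
    induction hg using closure_induction with
    | mem y hy => obtain ⟨a, b, c, h1, h2, h3, p, q⟩ := hy; intro i; rw [p, q, h.dl_e h1 h2]
    | one => simp
    | mul x y _ _ p q => intro i; simp [mul_assoc, q]; simp [← mul_assoc, p]
    | inv x _ p => intro i; simp [Units.inv_mul_eq_iff_eq_mul, ← mul_assoc, p]
  have cd : ∀ g ∈ Γ, ∀ a b c, g.1 * dl e a b c = dl e (g.2 a) (g.2 b) (g.2 c) * g.1 := fun g hg a b c => by
    simp only [dl, mul_sub, sub_mul, ← mul_assoc, cm g hg]; simp only [mul_assoc, cm g hg]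
  have mk : ∀ a b c, a ≠ b → a ≠ c → b ≠ c → ∃ y : Γ, Dl e y ∧ y.1.1 = dl e a b c ∧ π y = cyc a b c :=
    fun a b c h1 h2 h3 =>
      have : Dl e (⟨_, _, h.inv h1 h2, h.inv h2 h1⟩, cyc a b c) := ⟨a, b, c, h1, h2, h3, rfl, rfl⟩
      ⟨⟨_, subset_closure this⟩, this, rfl, rfl⟩
  have ex : ∀ σ, IsThreeCycle σ → ∃ y : Γ, Dl e y ∧ π y = σ := fun σ hσ => by
    obtain ⟨a, ha⟩ := Finset.card_pos.1 (hσ.card_support ▸ three_pos : 0 < σ.support.card)
    obtain ⟨b, c, h1, h2, h3, q, -⟩ := exists_cyc hσ ha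
    obtain ⟨y, p, -, r⟩ := mk a b c h1 h2 h3
    exact ⟨y, p, r.trans q.symm⟩
  have rg : π.range = alternatingGroup α := by
    rw [← closure_three_cycles_eq_alternating]
    refine le_antisymm ?_ ((closure_le _).2 fun σ hσ => (ex σ hσ).imp fun _ => (·.2))
    rintro _ ⟨g, rfl⟩
    exact (closure_le (comap (MonoidHom.snd _ _) (closure {σ | IsThreeCycle σ}))).2
      (fun y hy => Subgroup.subset_closure (t3 y hy)) g.2
  have iv : ∀ y : Γ, ∀ a b c, a ≠ b → a ≠ c → y.1.1 = dl e a b c → (y⁻¹).1.1 = dl e a c b :=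
    fun y a b c h1 h2 p => Units.inv_eq_of_mul_eq_one_right (p ▸ h.inv h1 h2)
  have L : Lf π fun y => Dl e y := by
    refine ⟨fun z hz => mem_center_iff.2 fun g => Subtype.ext ?_, fun σ hσ => rg.ge (mem_alternatingGroup.2 hσ),
      fun y => t3 y, ex, ?_, ?_, ?_, ?_⟩
    · have z2 : z.1.2 = 1 := hz
      have : Γ ≤ centralizer {z.1} := (closure_le _).2 ?_
      · exact (this g.2 _ rfl).symm
      rintro y ⟨a, b, c, _, _, _, p, _⟩ _ rfl
      exact Prod.ext (Units.ext (by simp [p, cd _ z.2, z2])) (by simp [z2])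
    · rintro x y ⟨a, b, c, h1, h2, h3, p, q⟩ ⟨a', b', c', k1, k2, k3, p', q'⟩ r
      exact Subtype.ext (Prod.ext (Units.ext
        (by rw [p, p', h.uq h1 h2 h3 k1 k2 k3 (q.symm.trans (r.trans q'))])) r)
    · rintro g y ⟨a, b, c, h1, h2, h3, p, q⟩
      exact ⟨g.1.2 a, g.1.2 b, g.1.2 c, by simpa, by simpa, by simpa, by simp [p, cd _ g.2],
        by simp [q, cyc_conj]⟩
    · rintro y ⟨a, b, c, h1, h2, h3, p, q⟩
      exact ⟨a, c, b, h2, h1, h3.symm, iv y a b c h1 h2 p, by simp [q, cyc_inv]⟩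
    · rintro y hy
      obtain ⟨a, b, c, h1, h2, h3, p, q⟩ := id hy
      exact Subtype.ext (Prod.ext (Units.ext (by simp [pow_three', p, h.two_eq h1 h2 h3, h.inv h2 h1]))
        (by simpa [(t3 _ hy).orderOf] using pow_orderOf_eq_one y.1.2))
  obtain ⟨f⟩ : Nonempty (Fin 4 ↪ α) := Function.Embedding.nonempty_of_card_le (by simpa)
  have n : ∀ i j, i ≠ j → f i ≠ f j := fun i j => f.injective.ne
  obtain ⟨x, d1, x1, x2⟩ := mk (f 0) (f 1) (f 2) (n _ _ (by decide)) (n _ _ (by decide)) (n _ _ (by decide))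
  obtain ⟨y, d2, y1, y2⟩ := mk (f 0) (f 1) (f 3) (n _ _ (by decide)) (n _ _ (by decide)) (n _ _ (by decide))
  have p : Pr π (fun y => Dl e y) x y := ⟨d1, d2, f 0, f 1, f 2, f 3, n _ _ (by decide), n _ _ (by decide),
    n _ _ (by decide), n _ _ (by decide), n _ _ (by decide), n _ _ (by decide), x2, y2⟩
  obtain ⟨-, -, b, m, a, c, h1, h2, h3, h4, h5, h6, e1, e2⟩ := id p
  have z1 : π ((x * y) ^ 2) = 1 := by rw [map_pow, map_mul, e1, e2, cyc_sq h1 h2 h3 h4 h5 h6]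
  have z2 := (pow_two _).trans (L.sq p)
  have o : orderOf ((x * y) ^ 2) = 2 := orderOf_eq_prime z2 fun k => h.ne (by
    have := congrArg (fun g : Γ => (g.1.1 : A)) k
    simpa [x1, y1, h.pr (n 0 1 (by decide)) (n 0 2 (by decide)) (n 1 2 (by decide)) (n 0 3 (by decide))
      (n 1 3 (by decide)) (n 2 3 (by decide))] using this)
  have l : zpowers ((x * y) ^ 2) ≤ center Γ := zpowers_le.2 (L.ker _ z1)
  have N : (zpowers ((x * y) ^ 2)).Normal := ⟨fun w hw g => by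
    rwa [mem_center_iff.1 (l hw), mul_inv_cancel_right]⟩
  have k : zpowers ((x * y) ^ 2) = π.ker := le_antisymm (zpowers_le.2 z1) fun g hg =>
    L.ker_le (fun x' y' p' => L.eq p p' ▸ mem_zpowers _) (zpowers_le.2 z1) Finset.univ g (by
      have : (⊤ : Subgroup Γ) ≤ gn π (fun y => Dl e y) (zpowers ((x * y) ^ 2)) Finset.univ :=
        (closure_closure_coe_preimage (k := {y | Dl e y})).ge.trans
          (Subgroup.closure_mono fun y hy => Or.inl ⟨hy, by simp [fx]⟩)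
      exact this trivial) hg
  let E := (QuotientGroup.quotientMulEquivOfEq k).trans
    ((QuotientGroup.quotientKerEquivRange π).trans (MulEquiv.subgroupCongr rg))
  have := Finite.of_equiv _ E.symm.toEquiv
  have : Finite (zpowers ((x * y) ^ 2)) := Nat.finite_of_card_ne_zero (by simp [o])
  refine ⟨Γ, inferInstance, .of_equiv _ (groupEquivQuotientProdSubgroup (s := zpowers ((x * y) ^ 2))).symm,
    _, L.ker _ z1, o, ?_, N, ⟨E⟩⟩
  rw [← Abelianization.ker_of, MonoidHom.mem_ker, ← mul_one (_ ^ 2), ← z2, ← pow_succ', ← pow_mul,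
    mul_comm 2, pow_mul, map_pow, map_pow, map_mul, mul_pow, ← map_pow, ← map_pow, L.cube x d1, L.cube y d2]
  simp

end Cfsg.H3.Sch
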